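import Cfsg.Agent.Lib.BNPair.Parabolic
import Cfsg.Agent.Lib.Chars.Induced
import Cfsg.Agent.S0190
import Cfsg.Prelude.Def_ParabolicCharacters

/-! The alternating sum of the parabolic permutation characters of a finite (B, N)-pair. -/
set_option autoImplicit false
open scoped Classical ComplexConjugate

namespace CfsgLib.BNPair.Steinberg

open CfsgLib.BNPair CfsgLib.BNPair.Bruhat CfsgLib.BNPair.Parabolic

variable {G : Type*} [Group G] (P : Cfsg.BNPair G)

theorem len_inv (w : W P) : len P w⁻¹ = len P w := by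
  suffices h : ∀ w : W P, len P w⁻¹ ≤ len P w from
    le_antisymm (h w) (by simpa using h w⁻¹)
  intro w
  obtain ⟨l, hl, rfl⟩ := exists_reduced P w
  exact (len_le P (word_reverse P l)).trans (by rw [List.length_reverse, hl])

theorem len_mul_simp_ne (s : P.S) (w : W P) : len P (w * simp_ P s) ≠ len P w := by
  intro h
  refine len_simp_mul_ne P s w⁻¹ ?_
  rw [← len_inv P, mul_inv_rev, inv_inv, simp_inv, h, len_inv]

theorem len_word_le (l : List P.S) : len P (word P l) ≤ l.length := len_le P rfl

theorem len_mul_le (a b : W P) : len P (a * b) ≤ len P a + len P b := by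
  obtain ⟨l, hl, rfl⟩ := exists_reduced P a
  obtain ⟨m, hm, rfl⟩ := exists_reduced P b
  rw [← word_append]
  exact (len_word_le P _).trans (by simp [hl, hm])

/-- deletion: every word contains a reduced word for the same element -/
theorem exists_reduced_sublist (l : List P.S) :
    ∃ m : List P.S, List.Sublist m l ∧ word P m = word P l ∧ m.length = len P (word P l) := by
  induction l with
  | nil => exact ⟨[], List.Sublist.refl _, rfl, by simp [len_one]⟩
  | cons s l ih =>
    obtain ⟨m, hm, hmw, hml⟩ := ih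
    rw [word_cons, ← hmw]
    have h3 : len P (word P m) = m.length := by rw [hmw, hml]
    rcases lt_or_gt_of_ne (len_simp_mul_ne P s (word P m)) with h | h
    · obtain ⟨a, c, t, rfl, he⟩ := exchange P m s h3 h
      refine ⟨a ++ c, (((List.Sublist.refl a).append (List.sublist_cons_self t c)).trans hm).cons s, he.symm, ?_⟩
      have h1 := len_le P he.symm
      have h2 := le_len_simp_mul P s (word P (a ++ t :: c))
      simp only [List.length_append, List.length_cons] at h3 h1 ⊢
      omega
    · refine ⟨s :: m, hm.cons_cons s, by simp, ?_⟩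
      have h1 := len_simp_mul_le P s (word P m)
      simp only [List.length_cons]
      omega

variable (J K : Set G)

/-- no right descent in `J` -/
def RMin (w : W P) : Prop := ∀ s : P.S, (s : G) ∈ J → len P w ≤ len P (w * simp_ P s)

/-- no left descent in `J` -/
def LMin (w : W P) : Prop := ∀ s : P.S, (s : G) ∈ J → len P w ≤ len P (simp_ P s * w)

theorem one_mem_WJ : (1 : W P) ∈ WJ P J := ⟨[], by simp, rfl⟩

theorem mul_mem_WJ {a b : W P} (ha : a ∈ WJ P J) (hb : b ∈ WJ P J) : a * b ∈ WJ P J := by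
  obtain ⟨l, hl, rfl⟩ := ha
  obtain ⟨m, hm, rfl⟩ := hb
  exact ⟨l ++ m, fun s hs => (List.mem_append.1 hs).elim (hl s) (hm s), word_append P l m⟩

theorem inv_mem_WJ {a : W P} (ha : a ∈ WJ P J) : a⁻¹ ∈ WJ P J := by
  obtain ⟨l, hl, rfl⟩ := ha
  exact ⟨l.reverse, fun s hs => hl s (List.mem_reverse.1 hs), word_reverse P l⟩

theorem word_mem_WJ {l : List P.S} (hl : ∀ s ∈ l, (s : G) ∈ J) : word P l ∈ WJ P J := ⟨l, hl, rfl⟩

variable {J K}

theorem simp_mem_WJ {s : P.S} (hs : (s : G) ∈ J) : simp_ P s ∈ WJ P J := ⟨[s], by simpa using hs, by simp⟩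

theorem WJ_empty {a : W P} (ha : a ∈ WJ P (∅ : Set G)) : a = 1 := by
  obtain ⟨l, hl, rfl⟩ := ha
  cases l with
  | nil => rfl
  | cons s t => exact absurd (hl s List.mem_cons_self) (by simp)

variable (J K) in
/-- a doubly minimal element in the double coset, with additive lengths -/
theorem exists_min (x : W P) : ∃ w, (∃ a ∈ WJ P J, ∃ b ∈ WJ P K, x = a * w * b) ∧ LMin P J w ∧ RMin P K w ∧
    ∀ a ∈ WJ P J, ∀ b ∈ WJ P K, ∃ la lb : List P.S, (∀ s ∈ la, (s : G) ∈ J) ∧ (∀ s ∈ lb, (s : G) ∈ K) ∧
      a * w * b = word P la * w * word P lb ∧ len P (a * w * b) = la.length + len P w + lb.length := by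
  have hex : ∃ n, ∃ a ∈ WJ P J, ∃ b ∈ WJ P K, len P (a * x * b) = n :=
    ⟨_, 1, one_mem_WJ P J, 1, one_mem_WJ P K, rfl⟩
  obtain ⟨a₀, ha₀, b₀, hb₀, h₀⟩ := Nat.find_spec hex
  set w := a₀ * x * b₀
  have hmin : ∀ a ∈ WJ P J, ∀ b ∈ WJ P K, len P w ≤ len P (a * w * b) := fun a ha b hb => by
    rw [show a * w * b = (a * a₀) * x * (b₀ * b) by simp only [w, mul_assoc], h₀]
    exact Nat.find_min' hex ⟨_, mul_mem_WJ P J ha ha₀, _, mul_mem_WJ P K hb₀ hb, rfl⟩
  refine ⟨w, ⟨a₀⁻¹, inv_mem_WJ P J ha₀, b₀⁻¹, inv_mem_WJ P K hb₀, by simp only [w]; group⟩,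
    fun s hs => by simpa using hmin _ (simp_mem_WJ P hs) 1 (one_mem_WJ P K),
    fun s hs => by simpa using hmin 1 (one_mem_WJ P J) _ (simp_mem_WJ P hs), fun a ha b hb => ?_⟩
  obtain ⟨la, hla, rfl⟩ := ha
  obtain ⟨lb, hlb, rfl⟩ := hb
  obtain ⟨lw, hlw, hw⟩ := exists_reduced P w
  obtain ⟨m, hm, hmw, hml⟩ := exists_reduced_sublist P (la ++ (lw ++ lb))
  rw [word_append, word_append, hw, ← mul_assoc] at hmw hml
  obtain ⟨m₁, m', rfl, h1, h'⟩ := List.sublist_append_iff.1 hm
  obtain ⟨m₂, m₃, rfl, h2, h3⟩ := List.sublist_append_iff.1 h'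
  have hm1 : ∀ s ∈ m₁, (s : G) ∈ J := fun s hs => hla s (h1.subset hs)
  have hm3 : ∀ s ∈ m₃, (s : G) ∈ K := fun s hs => hlb s (h3.subset hs)
  rw [word_append, word_append, ← mul_assoc] at hmw
  have e : m₂ = lw := by
    refine h2.eq_of_length (le_antisymm h2.length_le ?_)
    rw [hlw]
    refine le_trans ?_ (len_word_le P m₂)
    have := hmin ((word P m₁)⁻¹ * word P la) (mul_mem_WJ P J (inv_mem_WJ P J (word_mem_WJ P J hm1)) (word_mem_WJ P J hla))
      (word P lb * (word P m₃)⁻¹) (mul_mem_WJ P K (word_mem_WJ P K hlb) (inv_mem_WJ P K (word_mem_WJ P K hm3)))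
    rwa [show (word P m₁)⁻¹ * word P la * w * (word P lb * (word P m₃)⁻¹) =
      (word P m₁)⁻¹ * (word P la * w * word P lb) * (word P m₃)⁻¹ by group, ← hmw,
      show (word P m₁)⁻¹ * (word P m₁ * word P m₂ * word P m₃) * (word P m₃)⁻¹ = word P m₂ by group] at this
  subst e
  rw [hw] at hmw
  refine ⟨m₁, m₃, hm1, hm3, hmw.symm, ?_⟩
  rw [← hml, List.length_append, List.length_append, hlw]
  omega

theorem double_unique {x y : W P} (hx : LMin P J x) (hx' : RMin P K x) (hy : LMin P J y) (hy' : RMin P K y)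
    {a b : W P} (ha : a ∈ WJ P J) (hb : b ∈ WJ P K) (h : y = a * x * b) : x = y := by
  obtain ⟨w, ⟨c, hc, d, hd, hxw⟩, -, -, hadd⟩ := exists_min P J K x
  have key : ∀ z : W P, LMin P J z → RMin P K z → ∀ a ∈ WJ P J, ∀ b ∈ WJ P K, z = a * w * b → z = w := by
    intro z hz hz' a ha b hb e
    obtain ⟨la, lb, hla, hlb, hw, hlen⟩ := hadd a ha b hb
    rw [← e] at hw hlen
    cases la with
    | nil =>
      rcases lb.eq_nil_or_concat with rfl | ⟨lb', t, rfl⟩
      · simpa using hw
      · have ht := hz' t (hlb t (by simp))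
        have e2 : z * simp_ P t = w * word P lb' := by
          rw [hw, List.concat_eq_append, word_append]; simp [mul_assoc, simp_mul_self]
        have := (len_mul_le P w (word P lb')).trans (Nat.add_le_add_left (len_word_le P lb') _)
        rw [e2] at ht
        simp at hlen
        omega
    | cons s la' =>
      have hs := hz s (hla s List.mem_cons_self)
      have e2 : simp_ P s * z = word P la' * w * word P lb := by
        rw [hw, word_cons]; simp [mul_assoc, simp_mul_cancel]
      rw [e2] at hs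
      have h1 := len_mul_le P (word P la' * w) (word P lb)
      have h2 := len_mul_le P (word P la') w
      have h3 := len_word_le P la'
      have h4 := len_word_le P lb
      simp at hlen
      omega
  rw [key x hx hx' c hc d hd hxw, key y hy hy' (a * c) (mul_mem_WJ P J ha hc) (d * b) (mul_mem_WJ P K hd hb)
    (by rw [h, hxw]; simp [mul_assoc])]

theorem right_unique {w v : W P} (h : RMin P J w) (h' : RMin P J (w * v)) (hv : v ∈ WJ P J) : v = 1 := by
  have := double_unique P (J := (∅ : Set G)) (x := w) (y := w * v) (fun s hs => absurd hs (by simp)) h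
    (fun s hs => absurd hs (by simp)) h' (one_mem_WJ P ∅) hv (by simp)
  exact left_eq_mul.1 this

theorem len_add {w v : W P} (h : RMin P J w) (hv : v ∈ WJ P J) : len P (w * v) = len P w + len P v := by
  obtain ⟨u, ⟨c, hc, d, hd, hw⟩, hl, hu, hadd⟩ := exists_min P (∅ : Set G) J w
  obtain rfl := WJ_empty P hc
  rw [one_mul] at hw
  obtain rfl : u = w := double_unique P (J := (∅ : Set G)) hl hu (fun s hs => absurd hs (by simp)) h
    (one_mem_WJ P ∅) hd (by simpa using hw)
  obtain ⟨la, lb, hla, hlb, e, hlen⟩ := hadd 1 (one_mem_WJ P ∅) v hv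
  have hnil : la = [] := List.eq_nil_iff_forall_not_mem.2 fun s hs => absurd (hla s hs) (by simp)
  subst hnil
  simp at e hlen
  have := len_word_le P lb
  rw [← e] at this
  have := len_mul_le P u v
  omega

section cells

theorem cell_word_mul (l : List P.S) {w : W P} : ∀ {g h : G}, g ∈ cell P (word P l) → h ∈ cell P w →
    ∃ m : List P.S, List.Sublist m l ∧ g * h ∈ cell P (word P m * w) := by
  induction l with
  | nil =>
    intro g h hg hh
    exact ⟨[], List.Sublist.refl _, by simpa using mul_left_mem_cell P ((mem_cell_one P).1 hg) hh⟩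
  | cons s l ih =>
    intro g h hg hh
    obtain ⟨n, hn, b₁, h₁, b₂, h₂, rfl⟩ := hg
    have hm : (((gen P s)⁻¹ * n : P.N) : G) ∈ cell P (word P l) := by
      have := rep_mem_cell P ((gen P s)⁻¹ * n)
      rwa [map_mul, map_inv, hn, show proj P (gen P s) = simp_ P s from rfl, simp_inv, word_cons, simp_mul_cancel] at this
    have e : b₁ * (n : G) * b₂ * h = (b₁ * (s : G)) * ((((gen P s)⁻¹ * n : P.N) : G) * b₂ * h) := by
      simp [gen, mul_assoc]
    rw [e]
    obtain ⟨m, hm', hmem⟩ := ih (mul_right_mem_cell P h₂ hm) hh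
    rcases simp_cell_mul P s (mul_left_mem_cell P h₁ (gen_mem_cell P s)) hmem with h' | h'
    · exact ⟨s :: m, hm'.cons_cons s, by rw [word_cons, mul_assoc (simp_ P s)]; exact h'⟩
    · exact ⟨m, hm'.cons s, h'⟩

theorem mul_cell_word (l : List P.S) {w : W P} {g h : G} (hg : g ∈ cell P w) (hh : h ∈ cell P (word P l)) :
    ∃ m : List P.S, List.Sublist m l ∧ g * h ∈ cell P (w * word P m) := by
  have hh' := inv_mem_cell P hh
  rw [← word_reverse] at hh'
  obtain ⟨m, hm, hmem⟩ := cell_word_mul P l.reverse hh' (inv_mem_cell P hg)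
  refine ⟨m.reverse, by simpa using hm.reverse, ?_⟩
  have := inv_mem_cell P hmem
  simpa [mul_inv_rev, word_reverse] using this

theorem cell_mul_good (l : List P.S) {w : W P} : ∀ {g h : G}, len P (w * word P l) = len P w + l.length →
    g ∈ cell P w → h ∈ cell P (word P l) → g * h ∈ cell P (w * word P l) := by
  induction l generalizing w with
  | nil =>
    intro g h _ hg hh
    simpa using mul_right_mem_cell P ((mem_cell_one P).1 hh) hg
  | cons s l ih =>
    intro g h hlen hg hh
    obtain ⟨n, hn, b₁, h₁, b₂, h₂, rfl⟩ := hh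
    have hm : (((gen P s)⁻¹ * n : P.N) : G) ∈ cell P (word P l) := by
      have := rep_mem_cell P ((gen P s)⁻¹ * n)
      rwa [map_mul, map_inv, hn, show proj P (gen P s) = simp_ P s from rfl, simp_inv, word_cons, simp_mul_cancel] at this
    rw [word_cons, ← mul_assoc] at hlen
    have k1 := len_mul_le P (w * simp_ P s) (word P l)
    have k2 := len_word_le P l
    have k3 := len_mul_simp_le P s w
    simp only [List.length_cons] at hlen
    have hgs : g * b₁ * (s : G) ∈ cell P (w * simp_ P s) := by
      have hle : len P w⁻¹ ≤ len P (simp_ P s * w⁻¹) := by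
        rw [← len_inv P (simp_ P s * w⁻¹), mul_inv_rev, inv_inv, simp_inv, len_inv]; omega
      have := inv_mem_cell P (simp_cell_mul_good P hle
        (g := ((s : G))⁻¹) (by simpa [simp_inv] using inv_mem_cell P (gen_mem_cell P s))
        (inv_mem_cell P (mul_right_mem_cell P h₁ hg)))
      simpa [mul_inv_rev, simp_inv] using this
    have e : g * (b₁ * (n : G) * b₂) = g * b₁ * (s : G) * ((((gen P s)⁻¹ * n : P.N) : G) * b₂) := by
      simp [gen, mul_assoc]
    rw [e, word_cons, ← mul_assoc w]
    exact ih (by omega) hgs (mul_right_mem_cell P h₂ hm)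

/-- the cell of a coset of `B` -/
noncomputable def cw (g : G) : W P := (Parabolic.exists_cell P g).choose

theorem mem_cw (g : G) : g ∈ cell P (cw P g) := (Parabolic.exists_cell P g).choose_spec

theorem cw_eq {g : G} {w : W P} (h : g ∈ cell P w) : cw P g = w := eq_of_mem_cells P (mem_cw P g) h

noncomputable def cellOf : G ⧸ P.B → W P :=
  fun y => Quotient.liftOn' y (cw P) fun g g' h => by
    rw [QuotientGroup.leftRel_apply] at h
    refine (cw_eq P ?_).symm
    simpa [mul_assoc] using mul_right_mem_cell P h (mem_cw P g)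

theorem cellOf_mk (g : G) : cellOf P (QuotientGroup.mk g) = cw P g := rfl

theorem cellOf_smul {b : G} (hb : b ∈ P.B) (y : G ⧸ P.B) : cellOf P (b • y) = cellOf P y := by
  induction y using QuotientGroup.induction_on with
  | H g =>
    show cellOf P (QuotientGroup.mk (b * g)) = cw P g
    exact cw_eq P (mul_left_mem_cell P hb (mem_cw P g))

end cells

variable (J) in
/-- projection of chambers -/
def res : G ⧸ P.B → G ⧸ P.parabolic J := Subgroup.quotientMapOfLE (le_sup_left : P.B ≤ P.parabolic J)

variable (J) in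
theorem res_mk (g : G) : res P J (QuotientGroup.mk g) = QuotientGroup.mk g := rfl

variable (J) in
theorem res_smul (b : G) (y : G ⧸ P.B) : res P J (b • y) = b • res P J y := by
  induction y using QuotientGroup.induction_on with | H g => rfl

theorem res_inj (hJ : J ⊆ P.S) {y z : G ⧸ P.B} (hy : RMin P J (cellOf P y)) (hz : RMin P J (cellOf P z))
    (h : res P J y = res P J z) : y = z := by
  induction y using QuotientGroup.induction_on with
  | H g =>
  induction z using QuotientGroup.induction_on with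
  | H g' =>
    rw [res_mk, res_mk, QuotientGroup.eq] at h
    rw [cellOf_mk] at hy hz
    obtain ⟨v, hv⟩ := Parabolic.exists_cell P (g⁻¹ * g')
    have hvJ := (Parabolic.mem_parabolic_cell P hJ hv).1 h
    obtain ⟨l, hl, hlw, hll⟩ : ∃ l : List P.S, (∀ s ∈ l, (s : G) ∈ J) ∧ word P l = v ∧ l.length = len P v := by
      obtain ⟨l₀, h₀, e⟩ := hvJ
      exact reduced_in_parabolic P h₀ e
    have hadd := len_add P hy hvJ
    have hmem : g' ∈ cell P (cw P g * v) := by
      rw [← hll] at hadd
      rw [← hlw] at hadd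
      have := cell_mul_good P l hadd (mem_cw P g) (hlw.symm ▸ hv)
      rwa [mul_inv_cancel_left, hlw] at this
    rw [cw_eq P hmem] at hz
    have hv1 := right_unique P hy hz hvJ
    rw [hv1] at hv
    exact QuotientGroup.eq.2 ((mem_cell_one P).1 hv)

theorem res_surj (x : G ⧸ P.parabolic J) : ∃ y, RMin P J (cellOf P y) ∧ res P J y = x := by
  have hex : ∃ n, ∃ y, res P J y = x ∧ len P (cellOf P y) = n := by
    induction x using QuotientGroup.induction_on with
    | H g => exact ⟨_, QuotientGroup.mk g, rfl, rfl⟩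
  obtain ⟨y, hy, hlen⟩ := Nat.find_spec hex
  refine ⟨y, fun s hs => ?_, hy⟩
  induction y using QuotientGroup.induction_on with
  | H g =>
    rw [cellOf_mk] at hlen ⊢
    obtain ⟨n, hn, b₁, h₁, b₂, h₂, hg⟩ := mem_cw P g
    have hc : b₁ * ((n : G) * s) ∈ cell P (cw P g * simp_ P s) := by
      refine mul_left_mem_cell P h₁ ?_
      rw [← hn, simp_, ← map_mul]
      exact rep_mem_cell P (n * gen P s)
    rw [hlen]
    refine Nat.find_min' hex ⟨QuotientGroup.mk (b₁ * ((n : G) * s)), ?_, by rw [cellOf_mk, cw_eq P hc]⟩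
    rw [← hy, res_mk, res_mk, QuotientGroup.eq,
      show (b₁ * ((n : G) * s))⁻¹ * g = (s : G)⁻¹ * b₂ by rw [show g = b₁ * (n : G) * b₂ from hg]; group]
    exact mul_mem (inv_mem (Subgroup.mem_sup_right (Subgroup.subset_closure hs))) (Subgroup.mem_sup_left h₂)

section Finite

variable [Finite G]

theorem exists_longest : ∃ w : W P, ∀ s : P.S, len P (w * simp_ P s) < len P w ∧ len P (simp_ P s * w) < len P w := by
  have := Fintype.ofFinite (W P)
  obtain ⟨w, -, hw⟩ := Finset.exists_max_image Finset.univ (len P) ⟨1, Finset.mem_univ _⟩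
  exact ⟨w, fun s => ⟨lt_of_le_of_ne (hw _ (Finset.mem_univ _)) (len_mul_simp_ne P s w),
    lt_of_le_of_ne (hw _ (Finset.mem_univ _)) (len_simp_mul_ne P s w)⟩⟩

/-- the longest element -/
noncomputable def w0 : W P := (exists_longest P).choose

theorem w0_right (s : P.S) : len P (w0 P * simp_ P s) < len P (w0 P) := ((exists_longest P).choose_spec s).1

theorem w0_left (s : P.S) : len P (simp_ P s * w0 P) < len P (w0 P) := ((exists_longest P).choose_spec s).2

omit [Finite G] in
theorem len_prefix {z : W P} (hz : ∀ s, len P (simp_ P s * z) < len P z) :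
    ∀ (k : ℕ) (v : W P), len P v = k → len P z = len P v + len P (v⁻¹ * z) := by
  intro k
  induction k with
  | zero => intro v hv; obtain rfl := eq_one_of_len_zero P hv; simp [len_one]
  | succ k ih =>
    intro v hv
    obtain ⟨s, hs⟩ := exists_left_descent P (w := v) (by omega)
    have h1 := le_len_simp_mul P s v
    have hk : len P (simp_ P s * v) = k := by omega
    have hz' := ih _ hk
    obtain ⟨l₁, hl₁, e₁⟩ := exists_reduced P (simp_ P s * v)
    obtain ⟨l₂, hl₂, e₂⟩ := exists_reduced P ((simp_ P s * v)⁻¹ * z)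
    have ez : word P (l₁ ++ l₂) = z := by rw [word_append, e₁, e₂, mul_inv_cancel_left]
    obtain ⟨a, c, t, hac, he⟩ := exchange P (l₁ ++ l₂) s (by rw [ez, List.length_append, hl₁, hl₂, hz'])
      (by rw [ez]; exact hz s)
    rw [ez] at he
    rcases List.append_eq_append_iff.1 hac with ⟨d, rfl, hd⟩ | ⟨d, hd, hd'⟩
    · -- the deleted letter is in the second part
      have e : v⁻¹ * z = word P (d ++ c) := by
        have : simp_ P s * z = simp_ P s * v * word P (d ++ c) := by
          rw [he, ← e₁, List.append_assoc, word_append]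
        rw [mul_assoc] at this
        rw [mul_left_cancel this, inv_mul_cancel_left]
      have h3 := len_word_le P (d ++ c)
      rw [← e] at h3
      have h4 := len_mul_le P v (v⁻¹ * z)
      rw [mul_inv_cancel_left] at h4
      have h5 := congrArg List.length hd
      simp at h5 h3
      omega
    · -- otherwise it is the first letter of the second part, as `v` cannot be shortened
      rcases d with _ | ⟨t', d⟩
      · simp at hd hd'
        subst hd
        have e : v⁻¹ * z = word P c := by
          have : simp_ P s * z = simp_ P s * v * word P c := by rw [he, word_append, e₁]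
          rw [mul_assoc] at this
          rw [mul_left_cancel this, inv_mul_cancel_left]
        have h4 := len_mul_le P v (v⁻¹ * z)
        rw [mul_inv_cancel_left] at h4
        have h3 := len_word_le P c
        rw [← e] at h3
        have h5 := congrArg List.length hd'
        simp at h5
        omega
      · simp at hd'
        obtain ⟨rfl, rfl⟩ := hd'
        have e : word P (a ++ d) = v := by
          have h : word P (a ++ d) * word P l₂ = simp_ P s * z := by rw [he, ← word_append, List.append_assoc]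
          have h' : simp_ P s * z = simp_ P s * (simp_ P s * v) * word P l₂ := by rw [e₂]; group
          rw [simp_mul_cancel] at h'
          exact mul_right_cancel (h.trans h')
        have h3 := len_le P e
        have h5 := congrArg List.length hd
        simp at h5 h3
        omega

theorem eq_w0 {w : W P} (h : ∀ s, len P (w * simp_ P s) < len P w) : w = w0 P := by
  have hl : ∀ s, len P (simp_ P s * w⁻¹) < len P w⁻¹ := fun s => by
    rw [← len_inv P (simp_ P s * w⁻¹), mul_inv_rev, inv_inv, simp_inv, len_inv]; exact h s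
  have hr : ∀ s, len P (simp_ P s * (w0 P)⁻¹) < len P (w0 P)⁻¹ := fun s => by
    rw [← len_inv P (simp_ P s * (w0 P)⁻¹), mul_inv_rev, inv_inv, simp_inv, len_inv]; exact w0_right P s
  have h1 := len_prefix P hl _ (w0 P)⁻¹ rfl
  have h2 := len_prefix P hr _ w⁻¹ rfl
  have e : ((w0 P)⁻¹)⁻¹ * w⁻¹ = 1 := eq_one_of_len_zero P (by omega)
  rw [inv_inv, mul_inv_eq_one] at e
  exact e.symm

/-- chambers of the cell determine those of shorter cells -/
theorem fix_down {x : G} (hx : x ∈ P.B) {n : P.N} (hn : proj P n = w0 P)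
    (h : (n : G)⁻¹ * x * n ∈ P.B) (m : P.N) : (m : G)⁻¹ * x * m ∈ P.B := by
  suffices key : ∀ (k : ℕ) (m : P.N), len P (w0 P) - len P (proj P m) = k → (m : G)⁻¹ * x * m ∈ P.B from key _ m rfl
  intro k
  induction k using Nat.strong_induction_on with
  | _ k ih =>
    intro m hk
    by_cases hall : ∀ s, len P (proj P m * simp_ P s) < len P (proj P m)
    · have e := eq_w0 P hall
      rw [← hn, proj_eq_iff] at e
      obtain ⟨t, ht, ht'⟩ : ∃ t ∈ P.B, (n : G) = (m : G) * t := ⟨(m : G)⁻¹ * n, e, by group⟩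
      rw [ht'] at h
      have := mul_mem (mul_mem ht h) (inv_mem ht)
      simpa [mul_assoc] using this
    push Not at hall
    obtain ⟨s, hs⟩ := hall
    have hs' : len P (proj P m) < len P (proj P m * simp_ P s) := lt_of_le_of_ne hs (len_mul_simp_ne P s _).symm
    have hmax : len P (proj P m * simp_ P s) ≤ len P (w0 P) := by
      have := len_prefix P (w0_left P) _ (proj P m * simp_ P s) rfl
      omega
    have hfix := ih _ (by rw [map_mul]; show _ - len P (proj P m * simp_ P s) < k; omega) (m * gen P s) rfl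
    have e := res_inj P (J := {(s : G)}) (Set.singleton_subset_iff.2 s.2)
      (y := QuotientGroup.mk ((m : G))) (z := QuotientGroup.mk (x * m)) ?_ ?_ ?_
    · rw [QuotientGroup.eq, ← mul_assoc] at e; exact e
    · rw [cellOf_mk, cw_eq P (rep_mem_cell P m)]
      intro r hr
      rw [show r = s from Subtype.ext hr]
      exact hs
    · rw [cellOf_mk, cw_eq P (mul_left_mem_cell P hx (rep_mem_cell P m))]
      intro r hr
      rw [show r = s from Subtype.ext hr]
      exact hs
    · rw [res_mk, res_mk, QuotientGroup.eq]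
      have hsP : (s : G) ∈ P.parabolic {(s : G)} := Subgroup.mem_sup_right (Subgroup.subset_closure rfl)
      have h2 := mul_mem (mul_mem hsP (Subgroup.mem_sup_left hfix : _ ∈ P.parabolic {(s : G)})) (inv_mem hsP)
      simpa [gen, mul_assoc] using h2

noncomputable local instance : Fintype P.S := Fintype.ofFinite _

/-- the parabolic subgroup of a set of indices -/
abbrev para (J : Finset P.S) : Subgroup G := P.parabolic (Subtype.val '' (J : Set P.S))

theorem sub_S (J : Finset P.S) : Subtype.val '' (J : Set P.S) ⊆ P.S := by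
  rintro _ ⟨s, -, rfl⟩; exact s.2

/-- alternating sum of the parabolic permutation characters -/
noncomputable def st (g : G) : ℂ :=
  ∑ J : Finset P.S, (-1 : ℂ) ^ J.card * Cfsg.fixedPointCharacter (para P J) g

theorem sum_sign (w : W P) :
    ∑ J : Finset P.S, (if RMin P (Subtype.val '' (J : Set P.S)) w then (-1 : ℂ) ^ J.card else 0) =
      if w = w0 P then 1 else 0 := by
  rw [← Finset.sum_filter]
  set A := Finset.univ.filter fun s => len P w ≤ len P (w * simp_ P s) with hA
  have e : (Finset.univ.filter fun J : Finset P.S => RMin P (Subtype.val '' (J : Set P.S)) w) = A.powerset := by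
    ext J
    rw [Finset.mem_powerset, hA]
    refine ⟨fun h s hs => by simpa using (Finset.mem_filter.1 h).2 s ⟨s, hs, rfl⟩,
      fun h => Finset.mem_filter.2 ⟨Finset.mem_univ _, fun s hs => ?_⟩⟩
    obtain ⟨t, ht, e⟩ := hs
    obtain rfl := Subtype.ext e
    simpa using h ht
  rw [e]
  have := congrArg (Int.cast : ℤ → ℂ) (Finset.sum_powerset_neg_one_pow_card (x := A))
  push_cast at this
  rw [this]
  refine if_congr ⟨fun h => eq_w0 P fun s => ?_, fun h => ?_⟩ rfl rfl
  · exact Nat.lt_of_not_le fun hs => (h ▸ Finset.notMem_empty s) (by simp [hA, hs])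
  · subst h
    exact Finset.filter_eq_empty_iff.2 fun s _ => not_le.2 (w0_right P s)

theorem fixed_eq (J : Finset P.S) {b : G} (hb : b ∈ P.B) :
    Cfsg.fixedPointCharacter (para P J) b =
      (Nat.card {y : G ⧸ P.B // b • y = y ∧ RMin P (Subtype.val '' (J : Set P.S)) (cellOf P y)} : ℂ) := by
  have hs := sub_S P J
  unfold Cfsg.fixedPointCharacter
  congr 1
  symm
  refine Nat.card_congr (Equiv.ofBijective
    (fun y => ⟨res P _ y.1, by show b • _ = _; rw [← res_smul, y.2.1]⟩) ⟨fun y z h => ?_, fun x => ?_⟩)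
  · exact Subtype.ext (res_inj P hs y.2.2 z.2.2 (congrArg Subtype.val h))
  · obtain ⟨y, hy, hyx⟩ := res_surj P x.1
    refine ⟨⟨y, ?_, hy⟩, Subtype.ext hyx⟩
    refine res_inj P hs (by rw [cellOf_smul P hb]; exact hy) hy ?_
    rw [res_smul, hyx]; exact x.2

theorem st_borel {b : G} (hb : b ∈ P.B) :
    st P b = (Nat.card {y : G ⧸ P.B // b • y = y ∧ cellOf P y = w0 P} : ℂ) := by
  have := Fintype.ofFinite (G ⧸ P.B)
  have hsum : ∀ p : G ⧸ P.B → Prop, (Nat.card {y : G ⧸ P.B // b • y = y ∧ p y} : ℂ) =
      ∑ y ∈ Finset.univ.filter (fun y : G ⧸ P.B => b • y = y), if p y then 1 else 0 := fun p => by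
    rw [Finset.sum_boole, Nat.card_eq_fintype_card, Fintype.card_subtype, Finset.filter_filter]
  simp only [st, fixed_eq P _ hb, hsum, Finset.mul_sum, mul_ite, mul_one, mul_zero]
  rw [Finset.sum_comm]
  exact Finset.sum_congr rfl fun y _ => by convert sum_sign P (cellOf P y) using 2

/-- restriction to `B` -/
theorem st_restrict (H : Subgroup P.B) (hN : ∀ x ∈ H, ((x : P.B) : G) ∈ P.N)
    (hH : ∃ m : P.N, ∀ x : P.B, (m : G)⁻¹ * x * m ∈ P.B → x ∈ H) (b : P.B) :
    st P (b : G) = Cfsg.fixedPointCharacter H b := by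
  obtain ⟨n, hn⟩ := QuotientGroup.mk'_surjective (T P) (w0 P)
  obtain ⟨m, hm⟩ := hH
  have hstab : ∀ x : P.B, (n : G)⁻¹ * x * n ∈ P.B ↔ x ∈ H := fun x => by
    refine ⟨fun h => hm x (fix_down P x.2 hn h m), fun h => ?_⟩
    have := P.conj_mem _ (P.N.inv_mem n.2) x (Subgroup.mem_inf.2 ⟨x.2, hN x h⟩)
    simpa using this
  rw [st_borel P b.2]
  unfold Cfsg.fixedPointCharacter
  congr 1
  symm
  let f : P.B ⧸ H → G ⧸ P.B := fun q => Quotient.liftOn' q (fun x : P.B => QuotientGroup.mk ((x : G) * n))
    fun x y h => by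
      rw [QuotientGroup.leftRel_apply] at h
      refine QuotientGroup.eq.2 ?_
      have := (hstab _).2 h
      simpa [mul_assoc] using this
  have hf : ∀ (c : P.B) (q : P.B ⧸ H), f (c • q) = (c : G) • f q := fun c q => by
    induction q using QuotientGroup.induction_on with
    | H x => show QuotientGroup.mk _ = QuotientGroup.mk ((c : G) * ((x : G) * n)); simp [mul_assoc]
  have hinj : Function.Injective f := fun q r => by
    induction q using QuotientGroup.induction_on with
    | H x =>
    induction r using QuotientGroup.induction_on with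
    | H y =>
      intro h
      refine QuotientGroup.eq.2 ((hstab _).1 ?_)
      have h' := QuotientGroup.eq.1 (show (QuotientGroup.mk ((x : G) * n) : G ⧸ P.B) = QuotientGroup.mk ((y : G) * n) from h)
      simpa [mul_assoc] using h'
  refine Nat.card_congr (Equiv.ofBijective (fun q => ⟨f q.1, ?_, ?_⟩) ⟨fun q r h => ?_, fun y => ?_⟩)
  · rw [← hf]; exact congrArg f q.2
  · obtain ⟨x, hx⟩ := QuotientGroup.mk_surjective q.1
    rw [← hx]
    show cellOf P (QuotientGroup.mk ((x : G) * n)) = _
    rw [cellOf_mk]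
    exact cw_eq P (mul_left_mem_cell P x.2 (hn ▸ rep_mem_cell P n))
  · exact Subtype.ext (hinj (congrArg Subtype.val h))
  · obtain ⟨y, hy, hc⟩ := y
    induction y using QuotientGroup.induction_on with
    | H g =>
      rw [cellOf_mk] at hc
      obtain ⟨k, hk, b₁, h₁, b₂, h₂, hg⟩ := mem_cw P g
      rw [hc, ← hn, proj_eq_iff] at hk
      have e : (QuotientGroup.mk g : G ⧸ P.B) = f (QuotientGroup.mk (⟨b₁, h₁⟩ : P.B)) := by
        show _ = QuotientGroup.mk (b₁ * (n : G))
        refine QuotientGroup.eq.2 ?_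
        rw [show g = b₁ * (k : G) * b₂ from hg, show (b₁ * (k : G) * b₂)⁻¹ * (b₁ * (n : G)) = b₂⁻¹ * ((k : G)⁻¹ * n) by group]
        exact mul_mem (inv_mem h₂) hk
      refine ⟨⟨QuotientGroup.mk ⟨b₁, h₁⟩, ?_⟩, Subtype.ext e.symm⟩
      refine hinj ?_
      rw [hf, ← e]; exact hy

/-- orbits of one parabolic subgroup on the cosets of another -/
theorem card_orbits (J K : Finset P.S) :
    Nat.card (Quotient (MulAction.orbitRel (para P J) (G ⧸ para P K))) =
      Nat.card {w : W P // LMin P (Subtype.val '' (J : Set P.S)) w ∧ RMin P (Subtype.val '' (K : Set P.S)) w} := by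
  choose r hr using fun w : W P => QuotientGroup.mk'_surjective (T P) w
  have hrep : ∀ w : W P, ((r w : P.N) : G) ∈ cell P w := fun w => by
    have := rep_mem_cell P (r w)
    rwa [show proj P (r w) = w from hr w] at this
  symm
  refine Nat.card_congr (Equiv.ofBijective
    (fun w => Quotient.mk'' (QuotientGroup.mk ((r w.1 : P.N) : G))) ⟨fun w v h => ?_, fun q => ?_⟩)
  · obtain ⟨⟨p, hp⟩, he⟩ := MulAction.orbitRel_apply.1 (Quotient.exact' h)
    change (QuotientGroup.mk (p * (r v.1 : G)) : G ⧸ para P K) = QuotientGroup.mk (r w.1 : G) at he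
    rw [QuotientGroup.eq] at he
    obtain ⟨a, ha⟩ := Parabolic.exists_cell P p
    obtain ⟨l, hl, rfl⟩ := (Parabolic.mem_parabolic_cell P (sub_S P J) ha).1 hp
    obtain ⟨c, hc⟩ := Parabolic.exists_cell P ((p * (r v.1 : G))⁻¹ * (r w.1 : G))
    obtain ⟨k, hk, rfl⟩ := (Parabolic.mem_parabolic_cell P (sub_S P K) hc).1 he
    obtain ⟨l', hl', h1⟩ := cell_word_mul P l ha (hrep v.1)
    obtain ⟨k', hk', h2⟩ := mul_cell_word P k h1 hc
    rw [mul_inv_cancel_left] at h2
    have e := eq_of_mem_cells P (hrep w.1) h2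
    exact Subtype.ext (double_unique P v.2.1 v.2.2 w.2.1 w.2.2 (word_mem_WJ P _ fun s hs => hl s (hl'.subset hs))
      (word_mem_WJ P _ fun s hs => hk s (hk'.subset hs)) e).symm
  · induction q using Quotient.inductionOn' with
    | h x =>
    induction x using QuotientGroup.induction_on with
    | H g =>
      obtain ⟨n, hn, b₁, h₁, b₂, h₂, hg⟩ := mem_cw P g
      obtain ⟨w, ⟨a, ha, b, hb, e⟩, hl, hr', -⟩ :=
        exists_min P (Subtype.val '' (J : Set P.S)) (Subtype.val '' (K : Set P.S)) (cw P g)
      refine ⟨⟨w, hl, hr'⟩, ?_⟩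
      symm
      refine Quotient.sound' (MulAction.orbitRel_apply.2 ⟨⟨b₁ * (r a : G), mul_mem (Subgroup.mem_sup_left h₁) ?_⟩, ?_⟩)
      · exact (Parabolic.mem_parabolic_cell P (sub_S P J) (hrep a)).2 ha
      · show (QuotientGroup.mk (b₁ * (r a : G) * (r w : G)) : G ⧸ para P K) = QuotientGroup.mk g
        refine QuotientGroup.eq.2 ?_
        have hb' : ((r b : P.N) : G) ∈ para P K :=
          (Parabolic.mem_parabolic_cell P (sub_S P K) (hrep b)).2 hb
        have ht : ((r a * r w * r b : P.N) : G)⁻¹ * (n : G) ∈ P.B := by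
          rw [← proj_eq_iff, map_mul, map_mul, hr, hr, hr, hn, e]
        rw [show (b₁ * (r a : G) * (r w : G))⁻¹ * g = (r b : G) * (((r a * r w * r b : P.N) : G)⁻¹ * (n : G)) * b₂ by
          rw [hg]; simp [mul_assoc]]
        exact mul_mem (mul_mem hb' (Subgroup.mem_sup_left ht)) (Subgroup.mem_sup_left h₂)

variable [Fintype G]

theorem sum_orbits (H K : Subgroup G) [Fintype H] :
    ∑ h : H, Cfsg.fixedPointCharacter K (h : G) =
      (Nat.card H : ℂ) * Nat.card (Quotient (MulAction.orbitRel H (G ⧸ K))) := by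
  have := Fintype.ofFinite (G ⧸ K)
  have h := MulAction.sum_card_fixedBy_eq_card_orbits_mul_card_group H (G ⧸ K)
  simp only [← Nat.card_eq_fintype_card] at h
  rw [mul_comm, ← Nat.cast_mul, ← h, Nat.cast_sum]
  rfl

theorem perm_isCharacter (H : Subgroup G) : Cfsg.IsCharacter G (Cfsg.fixedPointCharacter H) := by
  have h := Cfsg.Agent.S0190.result (G := G) (G ⧸ H) (QuotientGroup.mk 1)
  unfold Cfsg.fixedPointCharacter
  rw [h]
  exact Chars.IsCharacter.indFun _ (Chars.IsIrrCharacter.isCharacter (Chars.isIrrCharacter_one _))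

theorem sum_fix_mul (H : Subgroup G) [Fintype H] {f : G → ℂ} (hf : Cfsg.IsClassFunction G f) :
    (Nat.card G : ℂ)⁻¹ * ∑ g : G, Cfsg.fixedPointCharacter H g * f g = (Nat.card H : ℂ)⁻¹ * ∑ h : H, f h := by
  have := Fintype.ofFinite (G ⧸ H)
  have e1 : ∀ g : G, Cfsg.fixedPointCharacter H g * f g = ∑ y : G ⧸ H, if g • y = y then f g else 0 := fun g => by
    unfold Cfsg.fixedPointCharacter
    rw [Finset.sum_ite, Finset.sum_const_zero, add_zero, Finset.sum_const, nsmul_eq_mul, Nat.card_eq_fintype_card,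
      ← Fintype.card_subtype]
    congr 2
  have e2 : ∀ y : G ⧸ H, (∑ g : G, if g • y = y then f g else 0) = ∑ h : H, f h := fun y => by
    induction y using QuotientGroup.induction_on with
    | H x =>
      rw [← Finset.sum_filter]
      refine Finset.sum_bij' (fun g hg => (⟨x⁻¹ * g * x, ?_⟩ : H)) (fun h _ => x * h * x⁻¹)
        (fun _ _ => Finset.mem_univ _) (fun h _ => ?_) (fun g _ => by simp [mul_assoc])
        (fun h _ => by simp [mul_assoc]) (fun g _ => ?_)
      · have := QuotientGroup.eq.1 (show (QuotientGroup.mk x : G ⧸ H) = QuotientGroup.mk (g * x) from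
          ((Finset.mem_filter.1 hg).2).symm)
        simpa [mul_assoc] using this
      · simp only [Finset.mem_filter, Finset.mem_univ, true_and]
        show (QuotientGroup.mk (x * h * x⁻¹ * x) : G ⧸ H) = QuotientGroup.mk x
        refine QuotientGroup.eq.2 ?_
        simp [mul_assoc]
      · have := hf g x⁻¹
        simpa using this.symm
  simp only [e1]
  rw [Finset.sum_comm, Finset.sum_congr rfl fun y _ => e2 y, Finset.sum_const, nsmul_eq_mul,
    Subgroup.card_eq_card_quotient_mul_card_subgroup H, Finset.card_univ, ← Nat.card_eq_fintype_card (α := G ⧸ H)]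
  have h1 : (Nat.card (G ⧸ H) : ℂ) ≠ 0 := Nat.cast_ne_zero.2 Nat.card_pos.ne'
  push_cast
  field_simp

theorem st_classFunction : Cfsg.IsClassFunction G (st P) := fun g h => by
  unfold st
  exact Finset.sum_congr rfl fun J _ =>
    congrArg _ (Chars.IsCharacter.isClassFunction (perm_isCharacter (para P J)) g h)

theorem st_average (J : Finset P.S) [Fintype (para P J)] :
    (Nat.card (para P J) : ℂ)⁻¹ * ∑ p : para P J, st P (p : G) = if J = ∅ then 1 else 0 := by
  have := Fintype.ofFinite (W P)
  unfold st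
  rw [Finset.sum_comm]
  simp only [← Finset.mul_sum, sum_orbits, card_orbits]
  rw [Finset.mul_sum]
  have h0 : (Nat.card (para P J) : ℂ) ≠ 0 := Nat.cast_ne_zero.2 Nat.card_pos.ne'
  have e : ∀ K : Finset P.S, (Nat.card (para P J) : ℂ)⁻¹ * ((-1 : ℂ) ^ K.card * ((Nat.card (para P J) : ℂ) *
      Nat.card {w : W P // LMin P (Subtype.val '' (J : Set P.S)) w ∧ RMin P (Subtype.val '' (K : Set P.S)) w})) =
      ∑ w ∈ Finset.univ.filter (fun w => LMin P (Subtype.val '' (J : Set P.S)) w),
        if RMin P (Subtype.val '' (K : Set P.S)) w then (-1 : ℂ) ^ K.card else 0 := fun K => by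
    rw [← Finset.sum_filter, Finset.sum_const, nsmul_eq_mul, Finset.filter_filter,
      Nat.card_eq_fintype_card (α := {w : W P // _}), Fintype.card_subtype]
    field_simp
  simp only [e]
  rw [Finset.sum_comm]
  simp only [sum_sign, Finset.sum_ite_eq', Finset.mem_filter, Finset.mem_univ, true_and]
  refine if_congr ⟨fun h => Finset.eq_empty_of_forall_notMem fun s hs => ?_, fun h => ?_⟩ rfl rfl
  · exact (not_le.2 (w0_left P s)) (h s ⟨s, hs, rfl⟩)
  · subst h; exact fun s hs => absurd hs (by simp)

theorem st_norm : Cfsg.classInner (st P) (st P) = 1 := by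
  have hreal : ∀ g, conj (st P g) = st P g := fun g => by
    simp [st, Cfsg.fixedPointCharacter, map_sum]
  unfold Cfsg.classInner
  simp only [hreal]
  have e : ∀ g, st P g * st P g = ∑ J : Finset P.S, (-1 : ℂ) ^ J.card * (Cfsg.fixedPointCharacter (para P J) g * st P g) := fun g => by
    conv_lhs => rw [show st P g = ∑ J : Finset P.S, (-1 : ℂ) ^ J.card * Cfsg.fixedPointCharacter (para P J) g from rfl]
    rw [Finset.sum_mul]
    exact Finset.sum_congr rfl fun J _ => mul_assoc _ _ _
  simp only [e]
  rw [Finset.sum_comm, Finset.mul_sum]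
  have e' : ∀ J : Finset P.S, (Nat.card G : ℂ)⁻¹ * ∑ g : G, (-1 : ℂ) ^ J.card * (Cfsg.fixedPointCharacter (para P J) g * st P g) =
      if J = ∅ then 1 else 0 := fun J => by
    rw [← Finset.mul_sum, mul_left_comm, sum_fix_mul _ (st_classFunction P), st_average]
    split_ifs with h <;> simp [h]
  rw [Finset.sum_congr rfl fun J _ => e' J]
  simp

theorem st_irreducible (h1 : ∃ k : ℕ, st P 1 = k ∧ 0 < k) : Cfsg.IsIrrCharacter G (st P) := by
  choose m hm using fun (J : Finset P.S) => Chars.exists_mult (perm_isCharacter (para P J))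
  set n : Cfsg.IrrCharacter G → ℤ := fun χ => ∑ J : Finset P.S, (-1) ^ J.card * (m J χ : ℤ)
  have hn : ∀ χ : Cfsg.IrrCharacter G, Cfsg.classInner (st P) (χ : G → ℂ) = (n χ : ℂ) := fun χ => by
    have := Chars.classInner_sum (G := G) Finset.univ (fun J : Finset P.S => (-1 : ℂ) ^ J.card)
      (fun J => Cfsg.fixedPointCharacter (para P J)) (χ : G → ℂ)
    simp only [n]
    push_cast
    rw [← show ∑ J : Finset P.S, (-1 : ℂ) ^ J.card * Cfsg.classInner (Cfsg.fixedPointCharacter (para P J)) (χ : G → ℂ) =
      ∑ J : Finset P.S, (-1 : ℂ) ^ J.card * (m J χ : ℂ) from Finset.sum_congr rfl fun J _ => by rw [hm J χ]]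
    exact this
  have hexp := Chars.classFunction_expand (st_classFunction P)
  simp only [hn] at hexp
  have hsq : (∑ χ : Cfsg.IrrCharacter G, n χ * n χ) = 1 := by
    have h := st_norm P
    have h2 : Cfsg.classInner (st P) (st P) = ∑ χ : Cfsg.IrrCharacter G, (n χ : ℂ) * Cfsg.classInner (χ : G → ℂ) (st P) := by
      conv_lhs => arg 1; ext g; rw [hexp g]
      exact Chars.classInner_sum _ _ _ _
    rw [h] at h2
    have h3 : ∀ χ : Cfsg.IrrCharacter G, Cfsg.classInner (χ : G → ℂ) (st P) = (n χ : ℂ) := fun χ => by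
      have := congrArg conj (hn χ)
      simp only [Cfsg.classInner, map_mul, map_inv₀, map_natCast, map_sum, Complex.conj_conj, map_intCast] at this
      rw [Cfsg.classInner, ← this]
      exact congrArg _ (Finset.sum_congr rfl fun g _ => mul_comm _ _)
    simp only [h3] at h2
    exact_mod_cast h2.symm
  obtain ⟨χ₀, hχ₀⟩ : ∃ χ₀, n χ₀ ≠ 0 := by
    by_contra hn'
    push Not at hn'
    simp [hn'] at hsq
  have hrest : ∀ χ, χ ≠ χ₀ → n χ = 0 := fun χ hne => by
    by_contra h
    have h' : n χ₀ * n χ₀ + n χ * n χ ≤ 1 := by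
      rw [← hsq, ← Finset.sum_pair (f := fun χ => n χ * n χ) (Ne.symm hne)]
      exact Finset.sum_le_sum_of_subset_of_nonneg (Finset.subset_univ _) fun x _ _ => mul_self_nonneg _
    nlinarith [Int.one_le_abs h, Int.one_le_abs hχ₀, abs_mul_abs_self (n χ), abs_mul_abs_self (n χ₀)]
  have he : ∀ g, st P g = (n χ₀ : ℂ) * (χ₀ : G → ℂ) g := fun g => by
    rw [hexp g, Finset.sum_eq_single χ₀ (fun b _ hb => by simp [hrest b hb]) (by simp)]
  have h01 : n χ₀ * n χ₀ = 1 := by
    rwa [Finset.sum_eq_single χ₀ (fun b _ hb => by simp [hrest b hb]) (by simp)] at hsq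
  obtain ⟨k, hk, hk0⟩ := h1
  have hpos : 0 < n χ₀ := by
    rw [he 1, Chars.irr_apply_one] at hk
    have hk' : n χ₀ * (Cfsg.charDegree (χ₀ : G → ℂ) : ℤ) = k := by exact_mod_cast hk
    have := Chars.charDegree_pos χ₀
    nlinarith
  have : n χ₀ = 1 := by nlinarith
  rw [show st P = (χ₀ : G → ℂ) from funext fun g => by rw [he g, this]; simp]
  exact χ₀.2

end Finite

end CfsgLib.BNPair.Steinberg
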