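import Cfsg.Agent.Lib.BNPair.Steinberg

/-! Counting unipotent elements in a finite split (B, N)-pair through the Steinberg character of each parabolic. -/
set_option autoImplicit false
open scoped Classical

namespace CfsgLib.BNPair.UnipotentCount

open CfsgLib.BNPair CfsgLib.BNPair.Bruhat CfsgLib.BNPair.Parabolic CfsgLib.BNPair.Steinberg

variable {G : Type*} [Group G] (P : Cfsg.BNPair G)

theorem len_prefix_in {J : Set G} {z : W P} (hz : ∀ s : P.S, (s : G) ∈ J → len P (simp_ P s * z) < len P z) :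
    ∀ (k : ℕ) (v : W P), v ∈ WJ P J → len P v = k → len P z = len P v + len P (v⁻¹ * z) := by
  intro k
  induction k with
  | zero => intro v _ hv; obtain rfl := eq_one_of_len_zero P hv; simp [len_one]
  | succ k ih =>
    intro v hvJ hv
    obtain ⟨l₀, hl₀, e₀⟩ := hvJ
    obtain ⟨l, hl, rfl, hll⟩ := reduced_in_parabolic P hl₀ e₀
    rcases l with _ | ⟨s, l₁⟩
    · simp [len_one] at hv
    have hs := hl s List.mem_cons_self
    have h1 := len_word_le P l₁
    have h2 := le_len_simp_mul P s (word P (s :: l₁))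
    rw [word_cons] at hll hv h2 ⊢
    rw [simp_mul_cancel] at h2
    simp only [List.length_cons] at hll
    have hk : len P (word P l₁) = k := by omega
    have hz' := ih _ (word_mem_WJ P J fun x hx => hl x (List.mem_cons_of_mem _ hx)) hk
    obtain ⟨l₂, hl₂, e₂⟩ := exists_reduced P ((word P l₁)⁻¹ * z)
    have ez : word P (l₁ ++ l₂) = z := by rw [word_append, e₂, mul_inv_cancel_left]
    obtain ⟨a, c, t, hac, he⟩ := exchange P (l₁ ++ l₂) s (by rw [ez, List.length_append]; omega)
      (by rw [ez]; exact hz s hs)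
    rw [ez] at he
    have hup : ∀ x : W P, simp_ P s * z = word P l₁ * x → (simp_ P s * word P l₁)⁻¹ * z = x := fun x hx => by
      rw [mul_inv_rev, simp_inv, mul_assoc, hx, inv_mul_cancel_left]
    have fin : ∀ m : List P.S, simp_ P s * z = word P l₁ * word P m → m.length < l₂.length →
        len P z = len P (simp_ P s * word P l₁) + len P ((simp_ P s * word P l₁)⁻¹ * z) := fun m hm hlt => by
      have h4 := len_mul_le P (simp_ P s * word P l₁) ((simp_ P s * word P l₁)⁻¹ * z)
      rw [mul_inv_cancel_left, hup _ hm] at h4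
      rw [hup _ hm]
      have := len_word_le P m
      omega
    rcases List.append_eq_append_iff.1 hac with ⟨d, rfl, hd⟩ | ⟨d, hd, hd'⟩
    · refine fin (d ++ c) (by rw [he, List.append_assoc, word_append]) ?_
      rw [hd]; simp
    · rcases d with _ | ⟨t', d⟩
      · simp at hd hd'
        subst hd
        exact fin c (by rw [he, word_append]) (by rw [← hd']; simp)
      · simp at hd'
        obtain ⟨rfl, rfl⟩ := hd'
        have h : word P (a ++ d) * word P l₂ = simp_ P s * z := by rw [he, ← word_append, List.append_assoc]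
        have h' : simp_ P s * z = simp_ P s * word P l₁ * word P l₂ := by rw [e₂]; group
        have h3 := len_le P (mul_right_cancel (h.trans h'))
        have h5 := congrArg List.length hd
        simp at h5 h3
        omega

/-- the longest element of `W_J` -/
def Top (J : Set G) (w : W P) : Prop := w ∈ WJ P J ∧ ∀ s : P.S, (s : G) ∈ J → len P (w * simp_ P s) < len P w

variable {P}

theorem Top.unique {J : Set G} {v w : W P} (hv : Top P J v) (hw : Top P J w) : v = w := by
  have left : ∀ {w : W P}, Top P J w → ∀ s : P.S, (s : G) ∈ J → len P (simp_ P s * w⁻¹) < len P w⁻¹ :=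
    fun {w} hw s hs => by
      rw [← len_inv P (simp_ P s * w⁻¹), mul_inv_rev, inv_inv, simp_inv, len_inv]; exact hw.2 s hs
  have h1 := len_prefix_in P (left hv) _ w⁻¹ (inv_mem_WJ P J hw.1) rfl
  have h2 := len_prefix_in P (left hw) _ v⁻¹ (inv_mem_WJ P J hv.1) rfl
  have e : (w⁻¹)⁻¹ * v⁻¹ = 1 := eq_one_of_len_zero P (by omega)
  rw [inv_inv, mul_inv_eq_one] at e
  exact e.symm

variable [Finite G]

theorem exists_top (J : Set G) : ∃ w, Top P J w ∧ ∀ s : P.S, (s : G) ∈ J → len P (simp_ P s * w) < len P w := by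
  have := Fintype.ofFinite (W P)
  obtain ⟨w, hwm, hw⟩ := Finset.exists_max_image (Finset.univ.filter fun w => w ∈ WJ P J) (len P)
    ⟨1, Finset.mem_filter.2 ⟨Finset.mem_univ _, one_mem_WJ P J⟩⟩
  have hwJ := (Finset.mem_filter.1 hwm).2
  refine ⟨w, ⟨hwJ, fun s hs => lt_of_le_of_ne (hw _ (Finset.mem_filter.2 ⟨Finset.mem_univ _,
      mul_mem_WJ P J hwJ (simp_mem_WJ P hs)⟩)) (len_mul_simp_ne P s w)⟩,
    fun s hs => lt_of_le_of_ne (hw _ (Finset.mem_filter.2 ⟨Finset.mem_univ _,
      mul_mem_WJ P J (simp_mem_WJ P hs) hwJ⟩)) (len_simp_mul_ne P s w)⟩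

variable [Fintype G]

noncomputable local instance : Fintype P.S := Fintype.ofFinite _

/-- the indices as elements -/
abbrev im (J : Finset P.S) : Set G := Subtype.val '' (J : Set P.S)

theorem im_mono {J K : Finset P.S} (h : K ⊆ J) : im K ⊆ im J := Set.image_mono (by simpa using h)

/-- the cosets of `P_K` inside `P_J` -/
def InP (J K : Finset P.S) (x : G ⧸ para P K) : Prop := ∃ h ∈ para P J, (QuotientGroup.mk h : G ⧸ para P K) = x

/-- the Steinberg character of the parabolic subgroup -/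
noncomputable def stJ (J : Finset P.S) (g : G) : ℂ :=
  ∑ K ∈ J.powerset, (-1 : ℂ) ^ K.card * (Nat.card {x : G ⧸ para P K // g • x = x ∧ InP J K x} : ℂ)

theorem InP_smul {J K : Finset P.S} {g : G} (hg : g ∈ para P J) {x : G ⧸ para P K} (hx : InP J K x) :
    InP J K (g • x) := by
  obtain ⟨h, hh, rfl⟩ := hx
  exact ⟨g * h, mul_mem hg hh, rfl⟩

theorem stJ_conj (J : Finset P.S) {h : G} (hh : h ∈ para P J) (g : G) : stJ J (h * g * h⁻¹) = stJ J g := by
  refine Finset.sum_congr rfl fun K _ => ?_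
  congr 2
  refine Nat.card_congr
    { toFun := fun x => ⟨h⁻¹ • x.1, ?_, InP_smul (inv_mem hh) x.2.2⟩
      invFun := fun x => ⟨h • x.1, ?_, InP_smul hh x.2.2⟩
      left_inv := fun x => Subtype.ext (smul_inv_smul _ _)
      right_inv := fun x => Subtype.ext (inv_smul_smul _ _) }
  · conv_rhs => rw [← x.2.1]
    rw [← mul_smul, ← mul_smul]; congr 1; group
  · rw [← mul_smul, show h * g * h⁻¹ * h = h * g by group, mul_smul, x.2.1]

theorem stJ_borel (J : Finset P.S) {b : G} (hb : b ∈ P.B) :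
    stJ J b = (Nat.card {y : G ⧸ P.B // b • y = y ∧ Top P (im J) (cellOf P y)} : ℂ) := by
  have := Fintype.ofFinite (G ⧸ P.B)
  have hbij : ∀ K ∈ J.powerset, Nat.card {x : G ⧸ para P K // b • x = x ∧ InP J K x} =
      Nat.card {y : G ⧸ P.B // b • y = y ∧ cellOf P y ∈ WJ P (im J) ∧ RMin P (im K) (cellOf P y)} := fun K hK => by
    have hs := sub_S P K
    have hKJ : para P K ≤ para P J := Parabolic.parabolic_mono P (im_mono (Finset.mem_powerset.1 hK))
    symm
    refine Nat.card_congr (Equiv.ofBijective (fun y => ⟨res P _ y.1, by rw [← res_smul, y.2.1], ?_⟩)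
      ⟨fun y z h => ?_, fun x => ?_⟩)
    · obtain ⟨g, hg⟩ := QuotientGroup.mk_surjective y.1
      refine ⟨g, ?_, by rw [← hg]; rfl⟩
      have := y.2.2.1
      rw [← hg, cellOf_mk] at this
      exact (mem_parabolic_cell P (sub_S P J) (mem_cw P g)).2 this
    · exact Subtype.ext (res_inj P hs y.2.2.2 z.2.2.2 (congrArg Subtype.val h))
    · obtain ⟨y, hy, hyx⟩ := res_surj P x.1
      refine ⟨⟨y, res_inj P hs (by rw [cellOf_smul P hb]; exact hy) hy (by rw [res_smul, hyx]; exact x.2.1), ?_, hy⟩,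
        Subtype.ext hyx⟩
      obtain ⟨g, hg⟩ := QuotientGroup.mk_surjective y
      obtain ⟨h, hh, hx⟩ := x.2.2
      rw [← hg, cellOf_mk]
      refine (mem_parabolic_cell P (sub_S P J) (mem_cw P g)).1 ?_
      rw [← hg, ← hx, res_mk, QuotientGroup.eq] at hyx
      have := mul_mem hh (inv_mem (hKJ hyx))
      simpa using this
  have hsum : ∀ p : G ⧸ P.B → Prop, (Nat.card {y : G ⧸ P.B // b • y = y ∧ p y} : ℂ) =
      ∑ y ∈ Finset.univ.filter (fun y : G ⧸ P.B => b • y = y), if p y then 1 else 0 := fun p => by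
    rw [Finset.sum_boole, Nat.card_eq_fintype_card, Fintype.card_subtype, Finset.filter_filter]
  rw [stJ, Finset.sum_congr rfl fun K hK => by rw [hbij K hK]]
  simp only [hsum, Finset.mul_sum, mul_ite, mul_one, mul_zero]
  rw [Finset.sum_comm]
  refine Finset.sum_congr rfl fun y _ => ?_
  by_cases hw : cellOf P y ∈ WJ P (im J)
  · simp only [hw, true_and]
    rw [← Finset.sum_filter]
    set w := cellOf P y
    set A := J.filter fun s => len P w ≤ len P (w * simp_ P s) with hA
    have e : (J.powerset.filter fun K => RMin P (im K) w) = A.powerset := by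
      ext K
      rw [Finset.mem_filter, Finset.mem_powerset, Finset.mem_powerset, hA]
      refine ⟨fun h s hs => Finset.mem_filter.2 ⟨h.1 hs, h.2 s ⟨s, hs, rfl⟩⟩,
        fun h => ⟨fun s hs => (Finset.mem_filter.1 (h hs)).1, fun s hs => ?_⟩⟩
      obtain ⟨t, ht, e⟩ := hs
      obtain rfl := Subtype.ext e
      exact (Finset.mem_filter.1 (h ht)).2
    rw [e]
    have := congrArg (Int.cast : ℤ → ℂ) (Finset.sum_powerset_neg_one_pow_card (x := A))
    push_cast at this
    rw [this]
    refine if_congr ⟨fun h => ⟨hw, fun s hs => ?_⟩, fun h => ?_⟩ rfl rfl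
    · obtain ⟨t, ht, e'⟩ := hs
      obtain rfl := Subtype.ext e'
      exact Nat.lt_of_not_le fun hle => (h ▸ Finset.notMem_empty t) (Finset.mem_filter.2 ⟨ht, hle⟩)
    · exact Finset.filter_eq_empty_iff.2 fun s hs => not_le.2 (h.2 s ⟨s, hs, rfl⟩)
  · rw [if_neg fun h : Top P (im J) _ => hw h.1]
    exact Finset.sum_eq_zero fun K _ => if_neg fun h => hw h.1

theorem card_fibre {J K : Finset P.S} (h : K ⊆ J) :
    Nat.card {x : G ⧸ para P K // InP J K x} * Nat.card (para P K) = Nat.card (para P J) := by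
  have hKJ : para P K ≤ para P J := Parabolic.parabolic_mono P (im_mono h)
  rw [Subgroup.card_eq_card_quotient_mul_card_subgroup ((para P K).subgroupOf (para P J)),
    Nat.card_congr (Subgroup.subgroupOfEquivOfLe hKJ).toEquiv]
  congr 1
  symm
  refine Nat.card_congr (Equiv.ofBijective (fun q => Quotient.liftOn' q
    (fun g : para P J => (⟨QuotientGroup.mk (g : G), g, g.2, rfl⟩ : {x : G ⧸ para P K // InP J K x}))
    fun g g' hg => Subtype.ext (QuotientGroup.eq.2 ?_)) ⟨fun q r => ?_, fun x => ?_⟩)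
  · rw [QuotientGroup.leftRel_apply, Subgroup.mem_subgroupOf] at hg
    exact hg
  · induction q using QuotientGroup.induction_on with
    | H a =>
    induction r using QuotientGroup.induction_on with
    | H b => exact fun h => QuotientGroup.eq.2 (Subgroup.mem_subgroupOf.2 (QuotientGroup.eq.1 (congrArg Subtype.val h)))
  · obtain ⟨g, hg, e⟩ := x.2
    exact ⟨QuotientGroup.mk ⟨g, hg⟩, Subtype.ext e⟩

variable (P) in
/-- elements of a subgroup satisfying `u` -/
noncomputable def cnt (u : G → Prop) (H : Subgroup G) : ℕ := (Finset.univ.filter fun g => g ∈ H ∧ u g).card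

theorem sum_over_unipotent (J : Finset P.S) {u : G → Prop} (hu : ∀ g h, u g → u (h * g * h⁻¹)) :
    ∑ g ∈ Finset.univ.filter (fun g => g ∈ para P J ∧ u g), stJ J g =
      ∑ K ∈ J.powerset, (-1 : ℂ) ^ K.card * ((Nat.card (para P J) : ℂ) / Nat.card (para P K) * cnt u (para P K)) := by
  unfold stJ
  rw [Finset.sum_comm]
  refine Finset.sum_congr rfl fun K hK => ?_
  rw [← Finset.mul_sum]
  congr 1
  have := Fintype.ofFinite (G ⧸ para P K)
  have hKJ : para P K ≤ para P J := Parabolic.parabolic_mono P (im_mono (Finset.mem_powerset.1 hK))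
  have e1 : ∀ g : G, (Nat.card {x : G ⧸ para P K // g • x = x ∧ InP J K x} : ℂ) =
      ∑ x ∈ Finset.univ.filter (InP J K), if g • x = x then 1 else 0 := fun g => by
    rw [Finset.sum_boole, Nat.card_eq_fintype_card, Fintype.card_subtype, Finset.filter_filter]
    congr 2
    exact Finset.filter_congr fun x _ => and_comm
  simp only [e1]
  rw [Finset.sum_comm]
  have e2 : ∀ x ∈ Finset.univ.filter (InP J K),
      (∑ g ∈ Finset.univ.filter (fun g => g ∈ para P J ∧ u g), if g • x = x then (1 : ℂ) else 0) = cnt u (para P K) := by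
    intro x hx
    obtain ⟨h, hh, rfl⟩ := (Finset.mem_filter.1 hx).2
    rw [Finset.sum_boole, cnt]
    congr 1
    refine Finset.card_bij' (fun g _ => h⁻¹ * g * h) (fun k _ => h * k * h⁻¹) (fun g hg => ?_) (fun k hk => ?_)
      (fun g _ => by group) (fun k _ => by group)
    · simp only [Finset.mem_filter, Finset.mem_univ, true_and] at hg ⊢
      refine ⟨?_, ?_⟩
      · have := QuotientGroup.eq.1 (show (QuotientGroup.mk h : G ⧸ para P K) = QuotientGroup.mk (g * h) from hg.2.symm)
        simpa [mul_assoc] using this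
      · simpa using hu g h⁻¹ hg.1.2
    · simp only [Finset.mem_filter, Finset.mem_univ, true_and] at hk ⊢
      refine ⟨⟨mul_mem (mul_mem hh (hKJ hk.1)) (inv_mem hh), hu k h hk.2⟩, ?_⟩
      show (QuotientGroup.mk (h * k * h⁻¹ * h) : G ⧸ para P K) = QuotientGroup.mk h
      refine QuotientGroup.eq.2 ?_
      simpa [mul_assoc] using hk.1
  rw [Finset.sum_congr rfl e2, Finset.sum_const, nsmul_eq_mul, ← Fintype.card_subtype, ← Nat.card_eq_fintype_card,
    ← card_fibre (Finset.mem_powerset.1 hK)]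
  have h1 : (Nat.card (para P K) : ℂ) ≠ 0 := Nat.cast_ne_zero.2 Nat.card_pos.ne'
  push_cast
  field_simp

/-- the data of a split (B, N)-pair -/
structure Split (u : G → Prop) where
  U : Subgroup G
  H : Subgroup G
  R : Finset P.S → Subgroup G
  hconj : ∀ g h, u g → u (h * g * h⁻¹)
  hU : ∀ g, g ∈ U ↔ g ∈ P.B ∧ u g
  hH : H ≤ P.B ⊓ P.N
  hdec : ∀ b ∈ P.B, ∃ x ∈ U, ∃ h ∈ H, b = x * h
  hUH : Disjoint U H
  hsylow : ∀ J g, g ∈ para P J → u g → ∃ h ∈ para P J, h⁻¹ * g * h ∈ U
  hRU : ∀ J, R J ≤ U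
  hRn : ∀ J, ∀ h ∈ para P J, ∀ r ∈ R J, h⁻¹ * r * h ∈ R J
  hR : ∀ J, ∀ m : P.N, proj P m ∈ WJ P (im J) →
    (∀ s : P.S, (s : G) ∈ im J → len P (simp_ P s * proj P m) < len P (proj P m)) →
    ∀ x ∈ U, (m : G)⁻¹ * x * m ∈ P.B → x ∈ R J

variable {u : G → Prop} (S : Split (P := P) u)

theorem cell_stab_card (J : Finset P.S) {w : W P} (hw : Top P (im J) w) :
    Nat.card {y : G ⧸ P.B // cellOf P y = w} * Nat.card (S.R J) = Nat.card S.U := by
  obtain ⟨v, hv, hvl⟩ := exists_top (P := P) (im J)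
  obtain rfl := hv.unique hw
  obtain ⟨m, rfl⟩ := QuotientGroup.mk'_surjective (T P) v
  set y₀ : G ⧸ P.B := QuotientGroup.mk (m : G)
  have hm : (m : G) ∈ para P J := (mem_parabolic_cell P (sub_S P J) (rep_mem_cell P m)).2 hw.1
  have horb : (MulAction.orbit P.B y₀ : Set (G ⧸ P.B)) = {y | cellOf P y = proj P m} := by
    ext y
    refine ⟨?_, fun hy => ?_⟩
    · rintro ⟨⟨b, hb⟩, rfl⟩
      show cellOf P (b • y₀) = _
      rw [cellOf_smul P hb, cellOf_mk, cw_eq P (rep_mem_cell P m)]
    · obtain ⟨g, rfl⟩ := QuotientGroup.mk_surjective y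
      rw [Set.mem_setOf_eq, cellOf_mk] at hy
      obtain ⟨k, hk, b₁, h₁, b₂, h₂, hg⟩ := mem_cw P g
      rw [hy, proj_eq_iff] at hk
      refine ⟨⟨b₁, h₁⟩, ?_⟩
      show (QuotientGroup.mk (b₁ * (m : G)) : G ⧸ P.B) = QuotientGroup.mk g
      refine QuotientGroup.eq.2 ?_
      rw [hg, show (b₁ * (m : G))⁻¹ * (b₁ * (k : G) * b₂) = ((k : G)⁻¹ * (m : G))⁻¹ * b₂ by group]
      exact mul_mem (inv_mem hk) h₂
  have hB : Nat.card P.B = Nat.card S.U * Nat.card S.H := by
    rw [← Nat.card_prod]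
    refine (Nat.card_congr (Equiv.ofBijective (fun p : S.U × S.H =>
      (⟨(p.1 : G) * p.2, mul_mem ((S.hU _).1 p.1.2).1 (S.hH p.2.2).1⟩ : P.B)) ⟨fun p q h => ?_, fun b => ?_⟩)).symm
    · exact Subgroup.mul_injective_of_disjoint S.hUH (congrArg Subtype.val h)
    · obtain ⟨x, hx, h, hh, e⟩ := S.hdec b b.2
      exact ⟨(⟨x, hx⟩, ⟨h, hh⟩), Subtype.ext e.symm⟩
  have hmem : ∀ b : P.B, b ∈ MulAction.stabilizer P.B y₀ ↔ (m : G)⁻¹ * b * m ∈ P.B := fun b => by
    rw [MulAction.mem_stabilizer_iff]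
    show (QuotientGroup.mk ((b : G) * m) : G ⧸ P.B) = QuotientGroup.mk (m : G) ↔ _
    rw [eq_comm, QuotientGroup.eq, mul_assoc]
  have hHfix : ∀ h ∈ S.H, (m : G)⁻¹ * h * m ∈ P.B := fun h hh => by
    have := P.conj_mem _ (P.N.inv_mem m.2) h (S.hH hh)
    simpa using this
  have hRfix : ∀ r ∈ S.R J, (m : G)⁻¹ * r * m ∈ P.B := fun r hr => ((S.hU _).1 (S.hRU J (S.hRn J _ hm r hr))).1
  have hst : Nat.card (MulAction.stabilizer P.B y₀) = Nat.card (S.R J) * Nat.card S.H := by
    rw [← Nat.card_prod]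
    refine (Nat.card_congr (Equiv.ofBijective (fun p : S.R J × S.H =>
      (⟨⟨(p.1 : G) * p.2, mul_mem ((S.hU _).1 (S.hRU J p.1.2)).1 (S.hH p.2.2).1⟩, (hmem _).2 ?_⟩ :
        MulAction.stabilizer P.B y₀)) ⟨fun p q h => ?_, fun b => ?_⟩)).symm
    · have := mul_mem (hRfix _ p.1.2) (hHfix _ p.2.2)
      simpa [mul_assoc] using this
    · have h' := congrArg (fun x : MulAction.stabilizer P.B y₀ => ((x : P.B) : G)) h
      have h2 := Subgroup.mul_injective_of_disjoint (S.hUH.mono_left (S.hRU J)) h'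
      exact h2
    · obtain ⟨x, hx, h, hh, e⟩ := S.hdec (b.1 : G) b.1.2
      have hb := (hmem b.1).1 b.2
      rw [e] at hb
      have hxm : (m : G)⁻¹ * x * m ∈ P.B := by
        have := mul_mem hb (inv_mem (hHfix h hh))
        simpa [mul_assoc] using this
      exact ⟨(⟨x, S.hR J m hw.1 hvl x hx hxm⟩, ⟨h, hh⟩), Subtype.ext (Subtype.ext e.symm)⟩
  have := Fintype.ofFinite (MulAction.orbit P.B y₀)
  have := Fintype.ofFinite (MulAction.stabilizer P.B y₀)
  have := Fintype.ofFinite P.B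
  have h := MulAction.card_orbit_mul_card_stabilizer_eq_card_group P.B y₀
  simp only [← Nat.card_eq_fintype_card] at h
  rw [hst, hB, ← mul_assoc, horb] at h
  exact Nat.eq_of_mul_eq_mul_right Nat.card_pos h

theorem sum_eq_card (S : Split (P := P) u) (J : Finset P.S) :
    ∑ g ∈ Finset.univ.filter (fun g => g ∈ para P J ∧ u g), stJ J g = Nat.card S.U := by
  obtain ⟨w, hw, hwl⟩ := exists_top (P := P) (im J)
  have hzero : ∀ g ∈ Finset.univ.filter (fun g => g ∈ para P J ∧ u g), g ∉ Finset.univ.filter (· ∈ S.R J) →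
      stJ J g = 0 := by
    intro g hg hgR
    simp only [Finset.mem_filter, Finset.mem_univ, true_and] at hg hgR
    obtain ⟨h, hh, hx⟩ := S.hsylow J g hg.1 hg.2
    rw [show g = h * (h⁻¹ * g * h) * h⁻¹ by group, stJ_conj J hh, stJ_borel J ((S.hU _).1 hx).1]
    suffices IsEmpty {y : G ⧸ P.B // (h⁻¹ * g * h) • y = y ∧ Top P (im J) (cellOf P y)} by simp
    refine ⟨fun ⟨y, hy, hty⟩ => hgR ?_⟩
    obtain ⟨k, rfl⟩ := QuotientGroup.mk_surjective y
    rw [cellOf_mk] at hty
    obtain ⟨m, hm, b₁, h₁, b₂, h₂, hk⟩ := mem_cw P k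
    have hfix : (m : G)⁻¹ * (b₁⁻¹ * (h⁻¹ * g * h) * b₁) * m ∈ P.B := by
      have h0 := QuotientGroup.eq.1 (show (QuotientGroup.mk k : G ⧸ P.B) = QuotientGroup.mk (h⁻¹ * g * h * k) from hy.symm)
      rw [hk] at h0
      have := mul_mem (mul_mem h₂ h0) (inv_mem h₂)
      simpa [mul_assoc] using this
    have hxU : b₁⁻¹ * (h⁻¹ * g * h) * b₁ ∈ S.U := (S.hU _).2 ⟨mul_mem (mul_mem (inv_mem h₁) ((S.hU _).1 hx).1) h₁,
      by simpa using S.hconj _ b₁⁻¹ ((S.hU _).1 hx).2⟩
    have hmw : proj P m = w := hm ▸ hty.unique hw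
    have hr := S.hR J m (hm ▸ hty.1) (hmw ▸ hwl) _ hxU hfix
    have := S.hRn J (b₁⁻¹ * h⁻¹) (mul_mem (Subgroup.mem_sup_left (inv_mem h₁)) (inv_mem hh)) _ hr
    simpa [mul_assoc] using this
  have hRsub : ∀ r ∈ S.R J, r ∈ para P J ∧ u r := fun r hr => by
    have := (S.hU _).1 (S.hRU J hr)
    exact ⟨Subgroup.mem_sup_left this.1, this.2⟩
  rw [← Finset.sum_subset (s₁ := Finset.univ.filter (· ∈ S.R J)) (fun r hr => by
    simp only [Finset.mem_filter, Finset.mem_univ, true_and] at hr ⊢; exact hRsub r hr) hzero]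
  have hval : ∀ r ∈ Finset.univ.filter (· ∈ S.R J), stJ J r = (Nat.card {y : G ⧸ P.B // cellOf P y = w} : ℂ) := by
    intro r hr
    simp only [Finset.mem_filter, Finset.mem_univ, true_and] at hr
    rw [stJ_borel J ((S.hU _).1 (S.hRU J hr)).1]
    congr 1
    refine Nat.card_congr (Equiv.subtypeEquivRight fun y => ⟨fun h => h.2.unique hw, fun h => ⟨?_, h ▸ hw⟩⟩)
    obtain ⟨g, rfl⟩ := QuotientGroup.mk_surjective y
    rw [cellOf_mk] at h
    have hg : g ∈ para P J := (mem_parabolic_cell P (sub_S P J) (mem_cw P g)).2 (h.symm ▸ hw.1)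
    show (QuotientGroup.mk (r * g) : G ⧸ P.B) = QuotientGroup.mk g
    refine (QuotientGroup.eq.2 ?_).symm
    rw [← mul_assoc]
    exact ((S.hU _).1 (S.hRU J (S.hRn J g hg r hr))).1
  rw [Finset.sum_congr rfl hval, Finset.sum_const, nsmul_eq_mul, ← cell_stab_card S J hw, ← Fintype.card_subtype,
    ← Nat.card_eq_fintype_card]
  push_cast
  ring

/-- the number of unipotent elements -/
theorem count (S : Split (P := P) u) :
    (Nat.card {g : G // u g} : ℂ) = Nat.card S.U * st P 1 := by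
  set a : Finset P.S → ℂ := fun K => (Nat.card G : ℂ) / Nat.card (para P K) * cnt u (para P K)
  have hE : ∀ J : Finset P.S, ∑ K ∈ J.powerset, (-1 : ℂ) ^ K.card * a K =
      Nat.card S.U * Cfsg.fixedPointCharacter (para P J) 1 := fun J => by
    have h := (sum_over_unipotent J S.hconj).symm.trans (sum_eq_card S J)
    have hJ : (Nat.card (para P J) : ℂ) ≠ 0 := Nat.cast_ne_zero.2 Nat.card_pos.ne'
    have hfp : Cfsg.fixedPointCharacter (para P J) 1 = (Nat.card G : ℂ) / Nat.card (para P J) := by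
      unfold Cfsg.fixedPointCharacter
      rw [MulAction.fixedBy_one_eq_univ, Nat.card_univ, Subgroup.card_eq_card_quotient_mul_card_subgroup (para P J),
        Nat.cast_mul, mul_div_cancel_right₀ _ hJ]
    rw [hfp, ← h, Finset.sum_mul]
    refine Finset.sum_congr rfl fun K _ => ?_
    simp only [a]
    field_simp
  have hst : (Nat.card S.U : ℂ) * st P 1 =
      ∑ J : Finset P.S, (-1 : ℂ) ^ J.card * ∑ K ∈ J.powerset, (-1 : ℂ) ^ K.card * a K := by
    unfold st
    rw [Finset.mul_sum]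
    exact Finset.sum_congr rfl fun J _ => by rw [hE J]; ring
  rw [hst]
  simp only [Finset.mul_sum]
  rw [Finset.sum_comm' (t' := Finset.univ) (s' := fun K => Finset.univ.filter (K ⊆ ·))
    (fun J K => by simp)]
  have hinner : ∀ K : Finset P.S, (∑ J ∈ Finset.univ.filter (K ⊆ ·), (-1 : ℂ) ^ J.card * ((-1 : ℂ) ^ K.card * a K)) =
      if K = Finset.univ then a K else 0 := by
    intro K
    rw [← Finset.sum_mul]
    have e : (∑ J ∈ Finset.univ.filter (K ⊆ ·), (-1 : ℂ) ^ J.card) =
        (-1 : ℂ) ^ K.card * ∑ L ∈ (Finset.univ \ K).powerset, (-1 : ℂ) ^ L.card := by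
      rw [Finset.mul_sum]
      refine Finset.sum_bij' (fun J _ => J \ K) (fun L _ => K ∪ L) (fun J _ => ?_) (fun L _ => ?_) (fun J hJ => ?_)
        (fun L hL => ?_) (fun J hJ => ?_)
      · exact Finset.mem_powerset.2 (Finset.sdiff_subset_sdiff (Finset.subset_univ _) le_rfl)
      · simp
      · exact Finset.union_sdiff_of_subset (Finset.mem_filter.1 hJ).2
      · ext x
        have : x ∈ L → x ∉ K := fun h => (Finset.mem_sdiff.1 (Finset.mem_powerset.1 hL h)).2
        simp; tauto
      · rw [← pow_add, Nat.add_comm, Finset.card_sdiff_add_card_eq_card (Finset.mem_filter.1 hJ).2]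
    rw [e]
    have := congrArg (Int.cast : ℤ → ℂ) (Finset.sum_powerset_neg_one_pow_card (x := Finset.univ \ K))
    push_cast at this
    rw [this]
    by_cases hK : K = Finset.univ
    · subst hK; simp [← mul_assoc, ← pow_add, ← two_mul, pow_mul]
    · have hne : Finset.univ \ K ≠ ∅ := fun h => hK (Finset.univ_subset_iff.1 (Finset.sdiff_eq_empty_iff_subset.1 h))
      rw [if_neg hne, if_neg hK]; simp
  rw [Finset.sum_congr rfl fun K _ => hinner K, Finset.sum_ite_eq' Finset.univ Finset.univ, if_pos (Finset.mem_univ _)]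
  simp only [a]
  have htop : para P (Finset.univ : Finset P.S) = ⊤ := by
    show P.parabolic (Subtype.val '' ((Finset.univ : Finset P.S) : Set P.S)) = ⊤
    rw [Finset.coe_univ, Set.image_univ, Subtype.range_coe]
    exact parabolic_univ P
  rw [htop, Subgroup.card_top, div_self (Nat.cast_ne_zero.2 Nat.card_pos.ne'), one_mul, cnt,
    Nat.card_eq_fintype_card, Fintype.card_subtype]
  simp

end CfsgLib.BNPair.UnipotentCount
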